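import Cfsg.Agent.LeechChar.Frame
import Cfsg.Prelude.Def_Sporadic_a

/-!
The code of a frame lattice: at most 759 words of weight 8 and 4096 words, with equality forced
by the number of shortest vectors; there is then an odd vector of shape (3, 1²³).
-/

set_option autoImplicit false

namespace Cfsg.Agent.LeechChar

open Cfsg

variable {L : AddSubgroup (GolayPt → ℤ)}

/-- The binary code of the even vectors. -/
def code (L : AddSubgroup (GolayPt → ℤ)) : Submodule (ZMod 2) (GolayPt → ZMod 2) where
  carrier := {w | ∃ d : GolayPt → ℤ, (2 : ℤ) • d ∈ L ∧ (fun i => (d i : ZMod 2)) = w}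
  zero_mem' := ⟨0, by rw [smul_zero]; exact L.zero_mem, funext fun i => by simp⟩
  add_mem' := by
    rintro _ _ ⟨d, hd, rfl⟩ ⟨d', hd', rfl⟩
    exact ⟨d + d', by rw [smul_add]; exact L.add_mem hd hd', funext fun i => by simp⟩
  smul_mem' := by
    rintro a _ ⟨d, hd, rfl⟩
    rcases (by revert a; decide : a = 0 ∨ a = 1) with rfl | rfl
    · exact ⟨0, by rw [smul_zero]; exact L.zero_mem, funext fun i => by simp⟩
    · exact ⟨d, hd, by rw [one_smul]⟩

theorem FrameLat.four_smul_mem (h : FrameLat L) {k : GolayPt → ℤ} (hk : (2 : ℤ) ∣ ∑ i, k i) :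
    (4 : ℤ) • k ∈ L := by
  obtain ⟨t, ht⟩ := hk
  have hsum : (4 : ℤ) • k =
      (∑ i ∈ (Finset.univ : Finset GolayPt).erase none, k i • (Pi.single i (4 : ℤ) - Pi.single none 4)) +
        t • Pi.single none (8 : ℤ) := by
    funext j
    simp only [Pi.add_apply, Finset.sum_apply, Pi.smul_apply, Pi.sub_apply, smul_eq_mul,
      Pi.single_apply, mul_sub, mul_ite, mul_zero, Finset.sum_sub_distrib]
    rcases eq_or_ne j none with rfl | hj
    · simp only [if_true, Finset.sum_ite_eq, Finset.mem_erase, ne_eq, not_true_eq_false, false_and,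
        if_false]
      have h1 := Finset.add_sum_erase (Finset.univ : Finset GolayPt) k (Finset.mem_univ none)
      rw [← Finset.sum_mul]
      omega
    · simp only [if_neg hj, Finset.sum_const_zero, Finset.sum_ite_eq, Finset.mem_erase, ne_eq, hj,
        not_false_eq_true, Finset.mem_univ, and_self, if_true, if_false, Finset.sum_const_zero, sub_zero,
        add_zero]
      ring
  rw [hsum]
  exact L.add_mem (L.sum_mem fun i hi => L.zsmul_mem (h.four i none (Finset.ne_of_mem_erase hi)) _)
    (L.zsmul_mem (h.eight none) _)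

/-- No vector `4 k` with `∑ k` odd lies in the lattice. -/
theorem FrameLat.even_of_four_smul_mem (h : FrameLat L) {k : GolayPt → ℤ}
    (hk : (4 : ℤ) • k ∈ L) : (2 : ℤ) ∣ ∑ i, k i := by
  by_contra hodd
  have h1 : (4 : ℤ) • (k - Pi.single none 1) ∈ L := h.four_smul_mem (by
    simp only [Pi.sub_apply, Finset.sum_sub_distrib, Finset.sum_pi_single', Finset.mem_univ, if_true]
    omega)
  have h2 : (4 : ℤ) • Pi.single (none : GolayPt) (1 : ℤ) ∈ L := by
    have := L.sub_mem hk h1
    rwa [smul_sub, sub_sub_cancel] at this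
  have h3 := h.min _ h2 fun e => by simpa using congrFun e none
  simp only [Pi.smul_apply, smul_eq_mul, Pi.single_apply, mul_ite, mul_zero, ite_pow, ne_eq,
    OfNat.ofNat_ne_zero, not_false_eq_true, zero_pow, Finset.sum_ite_eq', Finset.mem_univ, if_true] at h3
  norm_num at h3

/-- Words as sets. -/
theorem word_ext {v w : GolayPt → ZMod 2} (h : support₂ v = support₂ w) : v = w := by
  funext i
  have hi : v i ≠ 0 ↔ w i ≠ 0 := by simpa [support₂] using Finset.ext_iff.mp h i
  rcases (by generalize v i = a; revert a; decide : v i = 0 ∨ v i = 1) with hv | hv <;>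
    rcases (by generalize w i = a; revert a; decide : w i = 0 ∨ w i = 1) with hw | hw <;> simp_all

theorem hammingNorm_eq (w : GolayPt → ZMod 2) : hammingNorm w = (support₂ w).card := rfl

theorem mem_support₂_cast {d : GolayPt → ℤ} {i : GolayPt} :
    i ∈ support₂ (fun i => (d i : ZMod 2)) ↔ d i % 2 = 1 := by
  rw [support₂, Finset.mem_filter, ne_eq, ZMod.intCast_zmod_eq_zero_iff_dvd]
  simp only [Finset.mem_univ, true_and]
  omega

theorem card_support₂_cast (d : GolayPt → ℤ) :
    ((support₂ fun i => (d i : ZMod 2)).card : ℤ) = ∑ i, d i % 2 := by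
  rw [show (support₂ fun i => (d i : ZMod 2)) =
    (Finset.univ : Finset GolayPt).filter fun i => d i % 2 = 1 from by
      ext i; rw [mem_support₂_cast]; simp, Finset.natCast_card_filter]
  refine Finset.sum_congr rfl fun i _ => ?_
  split_ifs <;> omega

/-- The code is doubly even. -/
theorem FrameLat.four_dvd (h : FrameLat L) {w : GolayPt → ZMod 2} (hw : w ∈ code L) :
    4 ∣ hammingNorm w := by
  obtain ⟨d, hd, rfl⟩ := hw
  obtain ⟨a, ha⟩ := h.sq _ hd
  have hs : ∑ i, ((2 : ℤ) • d) i ^ 2 = 4 * ∑ i, d i ^ 2 := by
    rw [Finset.mul_sum]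
    exact Finset.sum_congr rfl fun i _ => by simp only [Pi.smul_apply, smul_eq_mul]; ring
  have hm : (4 : ℤ) ∣ ∑ i, d i ^ 2 - ∑ i, d i % 2 := by
    rw [← Finset.sum_sub_distrib]
    refine Finset.dvd_sum fun i _ => ?_
    rcases Int.emod_two_eq_zero_or_one (d i) with e | e
    · obtain ⟨k, hk⟩ : ∃ k, d i = 2 * k := ⟨d i / 2, by omega⟩
      exact ⟨k * k, by rw [e, hk]; ring⟩
    · obtain ⟨k, hk⟩ : ∃ k, d i = 2 * k + 1 := ⟨d i / 2, by omega⟩
      exact ⟨k * k + k, by rw [e, hk]; ring⟩
  rw [hs] at ha
  rw [hammingNorm_eq]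
  have := card_support₂_cast d
  omega

/-- The code is self-orthogonal. -/
theorem FrameLat.orth (h : FrameLat L) {v w : GolayPt → ZMod 2} (hv : v ∈ code L)
    (hw : w ∈ code L) : ∑ i, v i * w i = 0 := by
  obtain ⟨d, hd, rfl⟩ := hv
  obtain ⟨e, he, rfl⟩ := hw
  obtain ⟨a, ha⟩ := h.dot _ hd _ he
  have hs : ∑ i, ((2 : ℤ) • d) i * ((2 : ℤ) • e) i = 4 * ∑ i, d i * e i := by
    rw [Finset.mul_sum]
    exact Finset.sum_congr rfl fun i _ => by simp only [Pi.smul_apply, smul_eq_mul]; ring
  rw [hs] at ha
  have : ((∑ i, d i * e i : ℤ) : ZMod 2) = 0 := by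
    rw [ZMod.intCast_zmod_eq_zero_iff_dvd]; omega
  rw [← this]
  push_cast
  rfl

/-- The code has no words of weight 4. -/
theorem FrameLat.ne_four (h : FrameLat L) {w : GolayPt → ZMod 2} (hw : w ∈ code L) :
    hammingNorm w ≠ 4 := by
  intro h4
  obtain ⟨d, hd, rfl⟩ := hw
  let s := support₂ (fun i => (d i : ZMod 2))
  have hs4 : s.card = 4 := h4
  obtain ⟨a, ha⟩ : s.Nonempty := Finset.card_pos.mp (by omega)
  have key : ∀ g : GolayPt → ℤ, (∀ i, g i = if i ∈ s then (if i = a then g a else 1) else 0) →
      (g a = 1 ∨ g a = -1) → (2 : ℤ) • g ∈ L → False := by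
    intro g hg hga hgL
    have hne : (2 : ℤ) • g ≠ 0 := fun e => by
      have := congrFun e a
      simp only [Pi.smul_apply, smul_eq_mul, Pi.zero_apply] at this
      omega
    have h32 := h.min _ hgL hne
    have : ∀ i, ((2 : ℤ) • g) i ^ 2 = if i ∈ s then 4 else 0 := by
      intro i
      simp only [Pi.smul_apply, smul_eq_mul]
      rw [hg i]
      split_ifs with hi hia
      · rcases hga with e | e <;> rw [e] <;> norm_num
      · norm_num
      · norm_num
    rw [Finset.sum_congr rfl fun i _ => this i, Finset.sum_ite_mem, Finset.univ_inter,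
      Finset.sum_const, hs4] at h32
    norm_num at h32
  let g : ℤ → GolayPt → ℤ := fun ε i => if i ∈ s then (if i = a then ε else 1) else 0
  have hdiff : ∀ ε, (ε = 1 ∨ ε = -1) → ∃ k : GolayPt → ℤ, d - g ε = (2 : ℤ) • k := by
    intro ε hε
    refine ⟨fun i => (d i - g ε i) / 2, funext fun i => ?_⟩
    have hi := mem_support₂_cast (d := d) (i := i)
    simp only [g, Pi.sub_apply, Pi.smul_apply, smul_eq_mul]
    split_ifs with h1 h2
    · have := hi.mp h1; omega
    · have := hi.mp h1; omega
    · have : d i % 2 ≠ 1 := fun e => h1 (hi.mpr e)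
      omega
  obtain ⟨k, hk⟩ := hdiff 1 (Or.inl rfl)
  have hmem : ∀ ε, ∀ k' : GolayPt → ℤ, d - g ε = (2 : ℤ) • k' → (2 : ℤ) ∣ ∑ i, k' i →
      (2 : ℤ) • g ε ∈ L := by
    intro ε k' e he
    have h1 : (2 : ℤ) • g ε = (2 : ℤ) • d - (4 : ℤ) • k' := by
      rw [show (4 : ℤ) • k' = (2 : ℤ) • ((2 : ℤ) • k') by rw [smul_smul]; norm_num, ← e, smul_sub,
        sub_sub_cancel]
    rw [h1]
    exact L.sub_mem hd (h.four_smul_mem he)
  by_cases hpar : (2 : ℤ) ∣ ∑ i, k i
  · exact key (g 1) (fun i => by simp [g, ha]) (Or.inl (by simp [g, ha])) (hmem 1 k hk hpar)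
  · refine key (g (-1)) (fun i => by simp [g, ha]) (Or.inr (by simp [g, ha]))
      (hmem (-1) (k + Pi.single a 1) ?_ ?_)
    · funext i
      have := congrFun hk i
      simp only [g, Pi.sub_apply, Pi.smul_apply, Pi.add_apply, Pi.single_apply, smul_eq_mul] at this ⊢
      split_ifs at this ⊢ <;> first | omega | (subst_vars; exact absurd ha ‹_›)
    · simp only [Pi.add_apply, Finset.sum_add_distrib, Finset.sum_pi_single', Finset.mem_univ, if_true]
      omega

theorem FrameLat.eight_le (h : FrameLat L) {w : GolayPt → ZMod 2} (hw : w ∈ code L) (h0 : w ≠ 0) :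
    8 ≤ hammingNorm w := by
  have h1 : hammingNorm w ≠ 0 := fun e => h0 (hammingNorm_eq_zero.mp e)
  have := h.four_dvd hw
  have := h.ne_four hw
  omega

theorem dotProduct_eq_sum (v w : GolayPt → ZMod 2) : v ⬝ᵥ w = ∑ i, v i * w i := rfl

/-- The code has dimension at most 12. -/
theorem FrameLat.finrank_le (h : FrameLat L) : Module.finrank (ZMod 2) (code L) ≤ 12 := by
  let D := dotProductEquiv (ZMod 2) GolayPt
  have hle : (code L).map D.toLinearMap ≤ (code L).dualAnnihilator := by
    rintro _ ⟨v, hv, rfl⟩
    rw [Submodule.mem_dualAnnihilator]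
    intro w hw
    show v ⬝ᵥ w = 0
    rw [dotProduct_eq_sum]
    exact h.orth hv hw
  have h1 := Submodule.finrank_mono hle
  rw [LinearEquiv.finrank_map_eq] at h1
  have h2 := Subspace.finrank_add_finrank_dualAnnihilator_eq (code L)
  rw [Module.finrank_fintype_fun_eq_card] at h2
  have : Fintype.card GolayPt = 24 := by simp [GolayPt]
  omega

/-- The words of the code as a finset. -/
noncomputable def codeWords (L : AddSubgroup (GolayPt → ℤ)) : Finset (GolayPt → ZMod 2) :=
  (Set.toFinite (code L : Set (GolayPt → ZMod 2))).toFinset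

theorem mem_codeWords {w : GolayPt → ZMod 2} : w ∈ codeWords L ↔ w ∈ code L := by
  rw [codeWords, Set.Finite.mem_toFinset]; rfl

theorem card_codeWords : (codeWords L).card = 2 ^ Module.finrank (ZMod 2) (code L) := by
  have h1 : Nat.card (code L) = (codeWords L).card := by
    rw [← Nat.card_eq_finsetCard]
    exact Nat.card_congr (Equiv.subtypeEquivRight fun w => mem_codeWords.symm)
  rw [← h1, Module.natCard_eq_pow_finrank (K := ZMod 2), Nat.card_zmod]

/-- The supports of the words of weight 8. -/
noncomputable def codeOctads (L : AddSubgroup (GolayPt → ℤ)) : Finset (Finset GolayPt) :=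
  ((codeWords L).filter fun w => hammingNorm w = 8).image support₂

theorem mem_codeOctads {s : Finset GolayPt} :
    s ∈ codeOctads L ↔ ∃ w ∈ code L, hammingNorm w = 8 ∧ support₂ w = s := by
  simp [codeOctads, mem_codeWords, and_assoc]

theorem FrameLat.card_codeOctads_le (h : FrameLat L) : (codeOctads L).card ≤ 759 := by
  have hdisj : ∀ s ∈ codeOctads L, ∀ t ∈ codeOctads L, s ≠ t → (s ∩ t).card ≤ 4 := by
    intro s hs t ht hne
    obtain ⟨v, hv, hv8, rfl⟩ := mem_codeOctads.mp hs
    obtain ⟨w, hw, hw8, rfl⟩ := mem_codeOctads.mp ht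
    have h0 : v + w ≠ 0 := fun e => hne (by
      have : v = w := funext fun i => by
        have hi := congrFun e i
        simp only [Pi.add_apply, Pi.zero_apply] at hi
        revert hi
        generalize v i = a
        generalize w i = b
        revert a b
        decide
      rw [this])
    have h8 := h.eight_le ((code L).add_mem hv hw) h0
    rw [hammingNorm_eq] at h8 hv8 hw8
    have hsub : support₂ (v + w) ⊆ (support₂ v ∪ support₂ w) \ (support₂ v ∩ support₂ w) := by
      intro i
      simp only [support₂, Finset.mem_filter, Finset.mem_univ, true_and, Pi.add_apply, Finset.mem_sdiff,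
        Finset.mem_union, Finset.mem_inter]
      generalize v i = a
      generalize w i = b
      revert a b
      decide
    have h1 := Finset.card_le_card hsub
    rw [Finset.card_sdiff_of_subset (Finset.inter_subset_union)] at h1
    have h2 := Finset.card_union_add_card_inter (support₂ v) (support₂ w)
    omega
  have h1 : ((codeOctads L).biUnion fun s => s.powersetCard 5).card = 56 * (codeOctads L).card := by
    rw [Finset.card_biUnion, Finset.sum_congr rfl (g := fun _ => 56) fun s hs => by
      obtain ⟨w, -, hw8, rfl⟩ := mem_codeOctads.mp hs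
      rw [Finset.card_powersetCard, ← hammingNorm_eq, hw8]
      rfl, Finset.sum_const, smul_eq_mul, mul_comm]
    intro s hs t ht hne
    rw [Function.onFun, Finset.disjoint_left]
    intro q hqs hqt
    rw [Finset.mem_powersetCard] at hqs hqt
    have := Finset.card_le_card (Finset.subset_inter hqs.1 hqt.1)
    have := hdisj s hs t ht hne
    omega
  have h2 : ((codeOctads L).biUnion fun s => s.powersetCard 5) ⊆
      (Finset.univ : Finset GolayPt).powersetCard 5 := by
    intro q hq
    simp only [Finset.mem_biUnion, Finset.mem_powersetCard] at hq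
    obtain ⟨s, -, -, hq⟩ := hq
    simp [hq]
  have h3 := Finset.card_le_card h2
  rw [h1, Finset.card_powersetCard, Finset.card_univ, show Fintype.card GolayPt = 24 by simp [GolayPt],
    show Nat.choose 24 5 = 42504 by decide] at h3
  omega

/-- A finset of the shortest vectors. -/
theorem FrameLat.shell_finite (h : FrameLat L) :
    {x : GolayPt → ℤ | x ∈ L ∧ ∑ i, x i ^ 2 = 32}.Finite :=
  Set.finite_of_ncard_ne_zero (by rw [h.shell]; norm_num)

theorem sq_cases_even {d : ℤ} : d ^ 2 = 0 ∧ d = 0 ∨ d ^ 2 = 1 ∧ (d = 1 ∨ d = -1) ∨ 4 ≤ d ^ 2 := by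
  rcases (by omega : d = 0 ∨ (d = 1 ∨ d = -1) ∨ (2 ≤ d ∨ d ≤ -2)) with e | e | e
  · left; subst e; simp
  · right; left; exact ⟨by rcases e with rfl | rfl <;> norm_num, e⟩
  · right; right; rcases e with e | e <;> nlinarith

/-- Vectors with all coordinates odd and square sum 32 have one coordinate ±3, the others ±1. -/
theorem odd_shape {c : GolayPt → ℤ} (hodd : ∀ i, c i % 2 = 1) (hsq : ∑ i, c i ^ 2 = 32) :
    ∃ p, (c p = 3 ∨ c p = -3) ∧ ∀ i, i ≠ p → c i = 1 ∨ c i = -1 := by
  have hsum : ∑ i, (c i ^ 2 - 1) = 8 := by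
    rw [Finset.sum_sub_distrib, hsq, Finset.sum_const, Finset.card_univ,
      show Fintype.card GolayPt = 24 by simp [GolayPt]]
    norm_num
  have hval : ∀ i, (c i ^ 2 - 1 = 0 ∧ (c i = 1 ∨ c i = -1)) ∨
      (c i ^ 2 - 1 = 8 ∧ (c i = 3 ∨ c i = -3)) ∨ 24 ≤ c i ^ 2 - 1 := by
    intro i
    have := hodd i
    rcases (by omega : (c i = 1 ∨ c i = -1) ∨ (c i = 3 ∨ c i = -3) ∨ (5 ≤ c i ∨ c i ≤ -5)) with e | e | e
    · left; exact ⟨by rcases e with e | e <;> rw [e] <;> norm_num, e⟩
    · right; left; exact ⟨by rcases e with e | e <;> rw [e] <;> norm_num, e⟩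
    · right; right; rcases e with e | e <;> nlinarith
  have hnn : ∀ i, 0 ≤ c i ^ 2 - 1 := fun i => by rcases hval i with e | e | e <;> omega
  obtain ⟨p, hp⟩ : ∃ p, c p ^ 2 - 1 ≠ 0 := by
    by_contra hall
    push Not at hall
    rw [Finset.sum_eq_zero fun i _ => hall i] at hsum
    norm_num at hsum
  have h1 := Finset.add_sum_erase (Finset.univ : Finset GolayPt) (fun i => c i ^ 2 - 1) (Finset.mem_univ p)
  have h2 : 0 ≤ ∑ i ∈ (Finset.univ : Finset GolayPt).erase p, (c i ^ 2 - 1) :=
    Finset.sum_nonneg fun i _ => hnn i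
  rw [hsum] at h1
  have hp8 : c p ^ 2 - 1 = 8 ∧ (c p = 3 ∨ c p = -3) := by
    rcases hval p with e | e | e
    · exact absurd e.1 hp
    · exact e
    · omega
  refine ⟨p, hp8.2, fun i hi => ?_⟩
  have h3 : ∑ i ∈ (Finset.univ : Finset GolayPt).erase p, (c i ^ 2 - 1) = 0 := by omega
  have h4 := (Finset.sum_eq_zero_iff_of_nonneg fun j _ => hnn j).mp h3 i
    (Finset.mem_erase.mpr ⟨hi, Finset.mem_univ i⟩)
  rcases hval i with e | e | e
  · exact e.2
  · omega
  · omega

/-- The counting: the code has 4096 words, and an odd vector of shape (3, 1²³) exists. -/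
theorem FrameLat.equality (h : FrameLat L) :
    Module.finrank (ZMod 2) (code L) = 12 ∧
      ∃ x ∈ L, ∃ p, (x p = 3 ∨ x p = -3) ∧ ∀ i, i ≠ p → x i = 1 ∨ x i = -1 := by
  classical
  let S := h.shell_finite.toFinset
  have hS : ∀ c, c ∈ S ↔ c ∈ L ∧ ∑ i, c i ^ 2 = 32 := fun c => by simp [S]
  have hScard : S.card = 196560 := by
    show h.shell_finite.toFinset.card = 196560
    rw [← Set.ncard_eq_toFinset_card _ h.shell_finite, h.shell]
  -- the vectors divisible by 4
  let Z := S.filter fun c => ∀ i, c i % 4 = 0
  have hZ : Z.card ≤ 1104 := by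
    have hshape : ∀ c ∈ Z, ((Finset.univ : Finset GolayPt).filter fun i => c i ≠ 0).card = 2 ∧
        ∀ i, c i = 0 ∨ c i = 4 ∨ c i = -4 := by
      intro c hc
      rw [Finset.mem_filter, hS] at hc
      have hq : ∀ i, c i ^ 2 = 0 ∧ c i = 0 ∨ c i ^ 2 = 16 ∧ (c i = 4 ∨ c i = -4) ∨ 64 ≤ c i ^ 2 := by
        intro i
        have := hc.2 i
        rcases (by omega : c i = 0 ∨ (c i = 4 ∨ c i = -4) ∨ (8 ≤ c i ∨ c i ≤ -8)) with e | e | e
        · left; rw [e]; simp
        · right; left; exact ⟨by rcases e with e | e <;> rw [e] <;> norm_num, e⟩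
        · right; right; rcases e with e | e <;> nlinarith
      have hle : ∀ i, c i ^ 2 ≤ 32 := fun i =>
        hc.1.2 ▸ Finset.single_le_sum (f := fun j => c j ^ 2) (fun j _ => sq_nonneg (c j)) (Finset.mem_univ i)
      refine ⟨?_, fun i => ?_⟩
      · have h1 : ∑ i, c i ^ 2 = 16 * ((((Finset.univ : Finset GolayPt).filter fun i => c i ≠ 0).card : ℕ) : ℤ) := by
          rw [Finset.natCast_card_filter, Finset.mul_sum]
          refine Finset.sum_congr rfl fun i _ => ?_
          have := hle i
          rcases hq i with e | e | e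
          · rw [if_neg (not_not.mpr e.2), e.1]; norm_num
          · rw [if_pos (by omega), e.1]; norm_num
          · omega
        rw [hc.1.2] at h1
        omega
      · have := hle i
        rcases hq i with e | e | e <;> omega
    calc Z.card ≤ (((Finset.univ : Finset GolayPt).powersetCard 2).sigma fun s => s.powerset).card := by
          refine Finset.card_le_card_of_injOn (fun c =>
            (⟨(Finset.univ : Finset GolayPt).filter fun i => c i ≠ 0,
              (Finset.univ : Finset GolayPt).filter fun i => c i < 0⟩ : Σ _ : Finset GolayPt, Finset GolayPt)) ?_ ?_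
          · intro c hc
            simp only [Finset.mem_coe] at hc ⊢
            rw [Finset.mem_sigma, Finset.mem_powersetCard, Finset.mem_powerset]
            refine ⟨⟨Finset.subset_univ _, (hshape c hc).1⟩, fun i hi => ?_⟩
            simp only [Finset.mem_filter, Finset.mem_univ, true_and] at hi ⊢
            omega
          · intro c hc c' hc' e
            simp only [Sigma.mk.injEq, heq_eq_eq] at e
            funext i
            have h1 := Finset.ext_iff.mp e.1 i
            have h2 := Finset.ext_iff.mp e.2 i
            simp only [Finset.mem_filter, Finset.mem_univ, true_and] at h1 h2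
            rcases (hshape c hc).2 i with a | a | a <;> rcases (hshape c' hc').2 i with b | b | b <;> omega
      _ = 1104 := by
          rw [Finset.card_sigma, Finset.sum_congr rfl (g := fun _ => 4) fun s hs => by
            rw [Finset.card_powerset, (Finset.mem_powersetCard.mp hs).2]; rfl]
          rw [Finset.sum_const, Finset.card_powersetCard, Finset.card_univ,
            show Fintype.card GolayPt = 24 by simp [GolayPt]]
          decide
  -- the other even vectors
  let E := S.filter fun c => (∀ i, c i % 2 = 0) ∧ ¬ ∀ i, c i % 4 = 0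
  let supp : (GolayPt → ℤ) → Finset GolayPt := fun c =>
    support₂ fun i => (((c i / 2 : ℤ)) : ZMod 2)
  have hE : ∀ c ∈ E, supp c ∈ codeOctads L ∧
      ∀ i, (i ∈ supp c → c i = 2 ∨ c i = -2) ∧ (i ∉ supp c → c i = 0) := by
    intro c hc
    rw [Finset.mem_filter, hS] at hc
    obtain ⟨⟨hcL, hsq⟩, hev, hn4⟩ := hc
    let d : GolayPt → ℤ := fun i => c i / 2
    have hcd : c = (2 : ℤ) • d := funext fun i => by
      have := hev i
      simp only [d, Pi.smul_apply, smul_eq_mul]
      omega
    have hw : (fun i => (d i : ZMod 2)) ∈ code L := ⟨d, hcd ▸ hcL, rfl⟩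
    have hd8 : ∑ i, d i ^ 2 = 8 := by
      rw [hcd] at hsq
      simp only [Pi.smul_apply, smul_eq_mul, mul_pow, ← Finset.mul_sum] at hsq
      omega
    have hw0 : (fun i => (d i : ZMod 2)) ≠ 0 := by
      intro e
      apply hn4
      intro i
      have := congrFun e i
      simp only [Pi.zero_apply, ZMod.intCast_zmod_eq_zero_iff_dvd] at this
      have := hev i
      simp only [d] at *
      omega
    have h8 := h.eight_le hw hw0
    rw [hammingNorm_eq] at h8
    have hcard := card_support₂_cast d
    have hge : ∀ i, d i % 2 ≤ d i ^ 2 := fun i => by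
      rcases sq_cases_even (d := d i) with e | e | e <;> omega
    have heq : ∀ i, d i ^ 2 = d i % 2 := by
      have h1 : ∑ i, (d i ^ 2 - d i % 2) = 0 := by
        have h2 : 0 ≤ ∑ i, (d i ^ 2 - d i % 2) := Finset.sum_nonneg fun i _ => by have := hge i; omega
        rw [Finset.sum_sub_distrib] at h2 ⊢
        omega
      intro i
      have := (Finset.sum_eq_zero_iff_of_nonneg fun j _ => by have := hge j; omega).mp h1 i (Finset.mem_univ i)
      omega
    refine ⟨mem_codeOctads.mpr ⟨_, hw, ?_, rfl⟩, fun i => ⟨fun hi => ?_, fun hi => ?_⟩⟩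
    · have : ∑ i, d i % 2 = 8 := by rw [← hd8]; exact Finset.sum_congr rfl fun i _ => (heq i).symm
      rw [hammingNorm_eq]
      omega
    · have h1 : d i % 2 = 1 := mem_support₂_cast.mp hi
      have := heq i
      have := congrFun hcd i
      simp only [Pi.smul_apply, smul_eq_mul] at this
      rcases sq_cases_even (d := d i) with e | e | e <;> omega
    · have h1 : d i % 2 ≠ 1 := fun e => hi (mem_support₂_cast.mpr e)
      have := heq i
      have := congrFun hcd i
      simp only [Pi.smul_apply, smul_eq_mul] at this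
      rcases sq_cases_even (d := d i) with e | e | e <;> omega
  have hEcard : E.card ≤ 128 * (codeOctads L).card := by
    refine le_trans ?_ (Nat.mul_le_mul_left 128 (Finset.card_le_card
      (Finset.image_subset_iff.mpr fun c hc => (hE c hc).1 : E.image supp ⊆ codeOctads L)))
    refine Finset.card_le_mul_card_image E 128 fun s hs => ?_
    obtain ⟨c₀, hc₀, rfl⟩ := Finset.mem_image.mp hs
    obtain ⟨w, -, hw8, hws⟩ := mem_codeOctads.mp (hE c₀ hc₀).1
    have hs8 : (supp c₀).card = 8 := by rw [← hws, ← hammingNorm_eq]; exact hw8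
    obtain ⟨a, ha⟩ : (supp c₀).Nonempty := Finset.card_pos.mp (by omega)
    calc (E.filter fun c => supp c = supp c₀).card ≤ ((supp c₀).erase a).powerset.card := by
          refine Finset.card_le_card_of_injOn
            (fun c => ((supp c₀).erase a).filter fun i => c i < 0) ?_ ?_
          · intro c _
            simp only [Finset.mem_coe, Finset.mem_powerset]
            exact Finset.filter_subset _ _
          · intro c hc c' hc' e
            rw [Finset.mem_coe, Finset.mem_filter] at hc hc'
            have hout : ∀ i, i ≠ a → c i = c' i := by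
              intro i hia
              by_cases hi : i ∈ supp c₀
              · have h1 := Finset.ext_iff.mp e i
                simp only [Finset.mem_filter, Finset.mem_erase, ne_eq, hia, not_false_eq_true, hi, and_self,
                  true_and] at h1
                rcases ((hE c hc.1).2 i).1 (hc.2.symm ▸ hi) with u | u <;>
                  rcases ((hE c' hc'.1).2 i).1 (hc'.2.symm ▸ hi) with v | v <;> omega
              · rw [((hE c hc.1).2 i).2 (hc.2.symm ▸ hi), ((hE c' hc'.1).2 i).2 (hc'.2.symm ▸ hi)]
            funext i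
            rcases eq_or_ne i a with rfl | hia
            · by_contra hne
              rcases ((hE c hc.1).2 i).1 (hc.2.symm ▸ ha) with u | u <;>
                rcases ((hE c' hc'.1).2 i).1 (hc'.2.symm ▸ ha) with v | v <;> try omega
              all_goals
                have hmem := L.sub_mem ((hS c).mp (Finset.mem_filter.mp hc.1).1).1
                  ((hS c').mp (Finset.mem_filter.mp hc'.1).1).1
              · have hk : c - c' = (4 : ℤ) • Pi.single i (1 : ℤ) := funext fun j => by
                  rcases eq_or_ne j i with rfl | hj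
                  · simp [u, v]
                  · simp [hj, hout j hj]
                rw [hk] at hmem
                have := h.even_of_four_smul_mem hmem
                simp at this
              · have hk : c - c' = (4 : ℤ) • Pi.single i (-1 : ℤ) := funext fun j => by
                  rcases eq_or_ne j i with rfl | hj
                  · simp [u, v]
                  · simp [hj, hout j hj]
                rw [hk] at hmem
                have := h.even_of_four_smul_mem hmem
                simp at this
            · exact hout i hia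
      _ = 128 := by rw [Finset.card_powerset, Finset.card_erase_of_mem ha, hs8]; rfl
  -- the odd vectors
  let O := S.filter fun c => ∀ i, c i % 2 = 1
  have hsplit : S ⊆ Z ∪ E ∪ O := by
    intro c hc
    simp only [Finset.mem_union, Z, E, O, Finset.mem_filter, hc, true_and]
    have hp := h.parity c ((hS c).mp hc).1
    by_cases h4 : ∀ i, c i % 4 = 0
    · exact Or.inl (Or.inl h4)
    by_cases h2 : c none % 2 = 0
    · refine Or.inl (Or.inr ⟨fun i => ?_, h4⟩)
      have := hp i none
      omega
    · refine Or.inr fun i => ?_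
      have := hp i none
      omega
  have htot : S.card ≤ Z.card + E.card + O.card :=
    (Finset.card_le_card hsplit).trans ((Finset.card_union_le _ _).trans
      (Nat.add_le_add_right (Finset.card_union_le _ _) _))
  have hoct := h.card_codeOctads_le
  have hcode : (codeWords L).card ≤ 4096 := by
    rw [card_codeWords]
    exact Nat.pow_le_pow_right two_pos h.finrank_le
  obtain ⟨x₀, hx₀⟩ : O.Nonempty := Finset.card_pos.mp (by omega)
  have hOmem : ∀ c ∈ O, c ∈ L ∧ ∑ i, c i ^ 2 = 32 ∧ ∀ i, c i % 2 = 1 := fun c hc =>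
    ⟨((hS c).mp (Finset.mem_filter.mp hc).1).1, ((hS c).mp (Finset.mem_filter.mp hc).1).2,
      (Finset.mem_filter.mp hc).2⟩
  choose! pos hpos using fun c (hc : c ∈ O) => odd_shape (hOmem c hc).2.2 (hOmem c hc).2.1
  have hOcard : O.card ≤ (codeWords L).card * 24 := by
    calc O.card ≤ ((codeWords L) ×ˢ (Finset.univ : Finset GolayPt)).card := by
          refine Finset.card_le_card_of_injOn
            (fun c => ((fun i => (((c i - x₀ i) / 2 : ℤ) : ZMod 2)), pos c)) ?_ ?_
          · intro c hc
            simp only [Finset.mem_coe] at hc ⊢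
            rw [Finset.mem_product]
            refine ⟨mem_codeWords.mpr ⟨fun i => (c i - x₀ i) / 2, ?_, rfl⟩, Finset.mem_univ _⟩
            have he : (2 : ℤ) • (fun i => (c i - x₀ i) / 2) = c - x₀ := funext fun i => by
              have := (hOmem c hc).2.2 i
              have := (hOmem x₀ hx₀).2.2 i
              simp only [Pi.smul_apply, smul_eq_mul, Pi.sub_apply]
              omega
            rw [he]
            exact L.sub_mem (hOmem c hc).1 (hOmem x₀ hx₀).1
          · intro c hc c' hc' e
            simp only [Prod.mk.injEq] at e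
            funext i
            have h1 := congrFun e.1 i
            rw [ZMod.intCast_eq_intCast_iff_dvd_sub] at h1
            have := (hOmem c hc).2.2 i
            have := (hOmem c' hc').2.2 i
            have := (hOmem x₀ hx₀).2.2 i
            rcases eq_or_ne i (pos c) with rfl | hi
            · have := (hpos c hc).1
              have hb := (hpos c' hc').1
              rw [← e.2] at hb
              omega
            · have := (hpos c hc).2 i hi
              have := (hpos c' hc').2 i (e.2 ▸ hi)
              omega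
      _ = (codeWords L).card * 24 := by
          rw [Finset.card_product, Finset.card_univ, show Fintype.card GolayPt = 24 by simp [GolayPt]]
  refine ⟨?_, x₀, (hOmem x₀ hx₀).1, pos x₀, hpos x₀ hx₀⟩
  have h4096 : (codeWords L).card = 2 ^ 12 := by norm_num; omega
  rw [card_codeWords] at h4096
  exact Nat.pow_right_injective le_rfl h4096

end Cfsg.Agent.LeechChar
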