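import Mathlib

/-!
An even lattice of rank 24 without roots and with the Leech numbers of vectors of norm 4, 6, 8:
some class modulo 2 consists of 24 orthogonal pairs of vectors of norm 8 (a frame), and in the
coordinates of a frame the lattice is an integral lattice containing `4ℤ²⁴` up to parity.
-/

set_option autoImplicit false

namespace Cfsg.Agent.LeechChar

open Matrix

/-- Rank 24, even, no roots, Leech shell sizes. -/
structure EvenLat (B : Matrix (Fin 24) (Fin 24) ℤ) : Prop where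
  symm : B.IsSymm
  pos : ∀ x : Fin 24 → ℤ, x ≠ 0 → 0 < x ⬝ᵥ (B *ᵥ x)
  even : ∀ x : Fin 24 → ℤ, (2 : ℤ) ∣ x ⬝ᵥ (B *ᵥ x)
  two : ∀ x : Fin 24 → ℤ, x ⬝ᵥ (B *ᵥ x) ≠ 2
  n4 : {x : Fin 24 → ℤ | x ⬝ᵥ (B *ᵥ x) = 4}.ncard = 196560
  n6 : {x : Fin 24 → ℤ | x ⬝ᵥ (B *ᵥ x) = 6}.ncard = 16773120
  n8 : {x : Fin 24 → ℤ | x ⬝ᵥ (B *ᵥ x) = 8}.ncard = 398034000

variable {B : Matrix (Fin 24) (Fin 24) ℤ}

/-- The bilinear form of `B`. -/
def bil (B : Matrix (Fin 24) (Fin 24) ℤ) (x y : Fin 24 → ℤ) : ℤ := x ⬝ᵥ (B *ᵥ y)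

theorem bil_comm (h : EvenLat B) (x y : Fin 24 → ℤ) : bil B x y = bil B y x := by
  have hs : Bᵀ = B := h.symm
  rw [bil, bil, dotProduct_comm, ← hs, Matrix.mulVec_transpose, hs]
  exact (Matrix.dotProduct_mulVec _ _ _).symm

theorem bil_add_left (x y z : Fin 24 → ℤ) : bil B (x + y) z = bil B x z + bil B y z :=
  add_dotProduct x y (B *ᵥ z)

theorem bil_sub_left (x y z : Fin 24 → ℤ) : bil B (x - y) z = bil B x z - bil B y z :=
  sub_dotProduct x y (B *ᵥ z)

theorem bil_smul_left (a : ℤ) (x z : Fin 24 → ℤ) : bil B (a • x) z = a * bil B x z :=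
  smul_dotProduct a x (B *ᵥ z)

theorem bil_add_right (x y z : Fin 24 → ℤ) : bil B x (y + z) = bil B x y + bil B x z := by
  rw [bil, bil, bil, Matrix.mulVec_add, dotProduct_add]

theorem bil_sub_right (x y z : Fin 24 → ℤ) : bil B x (y - z) = bil B x y - bil B x z := by
  rw [bil, bil, bil, Matrix.mulVec_sub, dotProduct_sub]

theorem bil_smul_right (a : ℤ) (x z : Fin 24 → ℤ) : bil B x (a • z) = a * bil B x z := by
  rw [bil, bil, Matrix.mulVec_smul, dotProduct_smul, smul_eq_mul]

theorem bil_sum_left {ι : Type*} (s : Finset ι) (f : ι → Fin 24 → ℤ) (z : Fin 24 → ℤ) :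
    bil B (∑ i ∈ s, f i) z = ∑ i ∈ s, bil B (f i) z :=
  sum_dotProduct s f (B *ᵥ z)

theorem bil_zero_left (z : Fin 24 → ℤ) : bil B 0 z = 0 := zero_dotProduct _

theorem bil_neg_left (x z : Fin 24 → ℤ) : bil B (-x) z = -bil B x z := neg_dotProduct x _

theorem bil_neg_right (x z : Fin 24 → ℤ) : bil B x (-z) = -bil B x z := by
  rw [bil, bil, Matrix.mulVec_neg, dotProduct_neg]

theorem four_le (h : EvenLat B) {x : Fin 24 → ℤ} (hx : x ≠ 0) : 4 ≤ bil B x x := by
  have h1 := h.pos x hx
  have h2 := h.two x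
  have h3 := h.even x
  unfold bil
  omega

/-- The class of a vector modulo 2. -/
def cls (x : Fin 24 → ℤ) : Fin 24 → ZMod 2 := fun i => (x i : ZMod 2)

theorem exists_half_diff {x y : Fin 24 → ℤ} (hc : cls x = cls y) : ∃ z, x - y = (2 : ℤ) • z := by
  refine ⟨fun i => (x i - y i) / 2, funext fun i => ?_⟩
  have := congrFun hc i
  rw [cls, cls, ZMod.intCast_eq_intCast_iff_dvd_sub] at this
  simp only [Pi.sub_apply, Pi.smul_apply, smul_eq_mul]
  omega

/-- Two vectors of norm at most 8 in one class modulo 2 are opposite or orthogonal of norm 8. -/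
theorem class_cases (h : EvenLat B) {x y : Fin 24 → ℤ} (hc : cls x = cls y) (hne : x ≠ y)
    (hne' : x ≠ -y) (hx : bil B x x ≤ 8) (hy : bil B y y ≤ 8) :
    bil B x x = 8 ∧ bil B y y = 8 ∧ bil B x y = 0 := by
  obtain ⟨z, hz⟩ := exists_half_diff hc
  have hz0 : z ≠ 0 := fun e => hne (by rw [e, smul_zero] at hz; exact sub_eq_zero.mp hz)
  have hw : x + y = (2 : ℤ) • (z + y) := by
    rw [smul_add, ← hz, two_smul]; abel
  have hw0 : z + y ≠ 0 := fun e => hne' (by rw [e, smul_zero] at hw; exact add_eq_zero_iff_eq_neg.mp hw)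
  have e1 : bil B (x - y) (x - y) = 4 * bil B z z := by
    rw [hz, bil_smul_left, bil_smul_right]; ring
  have e2 : bil B (x + y) (x + y) = 4 * bil B (z + y) (z + y) := by
    rw [hw, bil_smul_left, bil_smul_right]; ring
  rw [bil_sub_left, bil_sub_right, bil_sub_right, bil_comm h y x] at e1
  rw [bil_add_left, bil_add_right, bil_add_right, bil_comm h y x] at e2
  have := four_le h hz0
  have := four_le h hw0
  omega

/-- An orthogonal family of nonzero vectors has at most 24 members. -/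
theorem card_orth_le (h : EvenLat B) {ι : Type*} [Fintype ι] (v : ι → Fin 24 → ℤ)
    (h0 : ∀ i, v i ≠ 0) (ho : ∀ i j, i ≠ j → bil B (v i) (v j) = 0) : Fintype.card ι ≤ 24 := by
  classical
  have hli : LinearIndependent ℤ v := by
    rw [Fintype.linearIndependent_iff]
    intro g hg j
    have h1 := congrArg (fun s => bil B s (v j)) hg
    simp only [bil_sum_left, bil_smul_left, bil_zero_left] at h1
    rw [Finset.sum_eq_single j (fun i _ hij => by rw [ho i j hij, mul_zero]) (by simp)] at h1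
    rcases mul_eq_zero.mp h1 with h2 | h2
    · exact h2
    · exact absurd h2 (by have := h.pos (v j) (h0 j); unfold bil; omega)
  have := hli.fintype_card_le_finrank
  simpa using this

/-- A frame: 24 orthogonal vectors of norm 8, congruent modulo 2. -/
theorem exists_frame (h : EvenLat B) : ∃ e : Fin 24 → Fin 24 → ℤ, (∀ i, bil B (e i) (e i) = 8) ∧
    (∀ i j, i ≠ j → bil B (e i) (e j) = 0) ∧ ∀ i j, ∃ z, e i - e j = (2 : ℤ) • z := by
  classical
  have f4 : {x : Fin 24 → ℤ | bil B x x = 4}.Finite :=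
    Set.finite_of_ncard_ne_zero (by show {x : Fin 24 → ℤ | x ⬝ᵥ (B *ᵥ x) = 4}.ncard ≠ 0; rw [h.n4]; norm_num)
  have f6 : {x : Fin 24 → ℤ | bil B x x = 6}.Finite :=
    Set.finite_of_ncard_ne_zero (by show {x : Fin 24 → ℤ | x ⬝ᵥ (B *ᵥ x) = 6}.ncard ≠ 0; rw [h.n6]; norm_num)
  have f8 : {x : Fin 24 → ℤ | bil B x x = 8}.Finite :=
    Set.finite_of_ncard_ne_zero (by show {x : Fin 24 → ℤ | x ⬝ᵥ (B *ᵥ x) = 8}.ncard ≠ 0; rw [h.n8]; norm_num)
  have c4 : f4.toFinset.card = 196560 := by rw [← Set.ncard_eq_toFinset_card _ f4]; exact h.n4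
  have c6 : f6.toFinset.card = 16773120 := by rw [← Set.ncard_eq_toFinset_card _ f6]; exact h.n6
  have c8 : f8.toFinset.card = 398034000 := by rw [← Set.ncard_eq_toFinset_card _ f8]; exact h.n8
  let S : Finset (Fin 24 → ℤ) := f4.toFinset ∪ f6.toFinset
  have hS : ∀ x ∈ S, bil B x x < 8 ∧ x ≠ 0 := by
    intro x hx
    simp only [S, Finset.mem_union, Set.Finite.mem_toFinset, Set.mem_ofPred_eq] at hx
    refine ⟨by omega, ?_⟩
    rintro rfl
    rw [bil_zero_left] at hx
    omega
  have hScard : S.card = 16969680 := by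
    rw [Finset.card_union_of_disjoint, c4, c6]
    rw [Finset.disjoint_left]
    intro x hx hx'
    simp only [Set.Finite.mem_toFinset, Set.mem_ofPred_eq] at hx hx'
    omega
  have hSfib : ∀ c ∈ S.image cls, (S.filter fun x => cls x = c).card ≤ 2 := by
    intro c hc
    obtain ⟨x, hx, rfl⟩ := Finset.mem_image.mp hc
    refine (Finset.card_le_card (t := {x, -x}) fun y hy => ?_).trans Finset.card_le_two
    rw [Finset.mem_filter] at hy
    simp only [Finset.mem_insert, Finset.mem_singleton]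
    by_contra hne
    push Not at hne
    obtain ⟨e, -, -⟩ := class_cases h hy.2 hne.1 hne.2 (hS y hy.1).1.le (hS x hx).1.le
    have := (hS y hy.1).1
    omega
  have hSimg : 8484840 ≤ (S.image cls).card := by
    have := Finset.card_le_mul_card_image (f := cls) S 2 hSfib
    omega
  have hzero : (0 : Fin 24 → ZMod 2) ∉ (S ∪ f8.toFinset).image cls := by
    intro h0
    obtain ⟨x, hx, hx0⟩ := Finset.mem_image.mp h0
    have hb : bil B x x ≤ 8 ∧ x ≠ 0 := by
      rw [Finset.mem_union] at hx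
      rcases hx with hx | hx
      · exact ⟨(hS x hx).1.le, (hS x hx).2⟩
      · rw [Set.Finite.mem_toFinset, Set.mem_ofPred_eq] at hx
        refine ⟨hx.le, ?_⟩
        rintro rfl
        rw [bil_zero_left] at hx
        omega
    obtain ⟨z, hz⟩ := exists_half_diff (show cls x = cls 0 by rw [hx0]; funext i; simp [cls])
    rw [sub_zero] at hz
    have hz0 : z ≠ 0 := fun e => hb.2 (by rw [hz, e, smul_zero])
    have := four_le h hz0
    rw [hz, bil_smul_left, bil_smul_right] at hb
    omega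
  have hdisj : Disjoint (S.image cls) (f8.toFinset.image cls) := by
    rw [Finset.disjoint_left]
    intro c hc hc'
    obtain ⟨x, hx, rfl⟩ := Finset.mem_image.mp hc
    obtain ⟨y, hy, hyx⟩ := Finset.mem_image.mp hc'
    rw [Set.Finite.mem_toFinset, Set.mem_ofPred_eq] at hy
    have h8 := (hS x hx).1
    have hne : y ≠ x := by rintro rfl; omega
    have hne' : y ≠ -x := by
      rintro rfl
      rw [bil_neg_left, bil_neg_right, neg_neg] at hy
      omega
    obtain ⟨-, e, -⟩ := class_cases h hyx hne hne' hy.le h8.le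
    omega
  have h8img : (f8.toFinset.image cls).card ≤ 8292375 := by
    have h1 := Finset.card_le_univ (insert 0 ((S ∪ f8.toFinset).image cls))
    rw [Finset.card_insert_of_notMem hzero, Finset.image_union, Finset.card_union_of_disjoint hdisj,
      Fintype.card_fun, ZMod.card, Fintype.card_fin] at h1
    norm_num at h1
    omega
  obtain ⟨c, hc, hbig⟩ : ∃ c ∈ f8.toFinset.image cls, 47 < (f8.toFinset.filter fun x => cls x = c).card := by
    by_contra hne
    push Not at hne
    have := Finset.card_le_mul_card_image (f := cls) f8.toFinset 47 hne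
    omega
  let F := f8.toFinset.filter fun x => cls x = c
  let P : Finset (Finset (Fin 24 → ℤ)) := F.image fun x => {x, -x}
  have hF : ∀ x ∈ F, bil B x x = 8 ∧ cls x = c := fun x hx => by simpa [F] using hx
  have hrep : ∀ p : P, ∃ x, x ∈ F ∧ ({x, -x} : Finset (Fin 24 → ℤ)) = p.1 := fun p =>
    Finset.mem_image.mp p.2
  choose rep hrepF hrepP using hrep
  have hnz : ∀ x ∈ F, x ≠ 0 := fun x hx e => by
    have := (hF x hx).1
    rw [e, bil_zero_left] at this
    omega
  have horth : ∀ p q : P, p ≠ q → bil B (rep p) (rep q) = 0 := by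
    intro p q hpq
    refine (class_cases h ((hF _ (hrepF p)).2.trans (hF _ (hrepF q)).2.symm) ?_ ?_
      (hF _ (hrepF p)).1.le (hF _ (hrepF q)).1.le).2.2
    · exact fun e => hpq (Subtype.ext (by rw [← hrepP p, ← hrepP q, e]))
    · exact fun e => hpq (Subtype.ext (by rw [← hrepP p, ← hrepP q, e, neg_neg, Finset.pair_comm]))
  have hPle := card_orth_le h rep (fun p => hnz _ (hrepF p)) horth
  rw [Fintype.card_coe] at hPle
  have hPge : F.card ≤ 2 * P.card := by
    refine Finset.card_le_mul_card_image F 2 fun p hp => ?_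
    obtain ⟨x, hx, rfl⟩ := Finset.mem_image.mp hp
    refine (Finset.card_le_card (t := {x, -x}) fun y hy => ?_).trans Finset.card_le_two
    rw [Finset.mem_filter] at hy
    rw [← hy.2]
    simp
  have hP : P.card = 24 := by
    have : 47 < F.card := hbig
    omega
  let ε : Fin 24 ≃ P := (P.equivFinOfCardEq hP).symm
  refine ⟨fun i => rep (ε i), fun i => (hF _ (hrepF _)).1,
    fun i j hij => horth _ _ fun e => hij (ε.injective e), fun i j => ?_⟩
  exact exists_half_diff ((hF _ (hrepF _)).2.trans (hF _ (hrepF _)).2.symm)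

/-- The properties of the lattice in frame coordinates. -/
structure FrameLat {ι : Type*} [Fintype ι] (L : AddSubgroup (ι → ℤ)) : Prop where
  eight : ∀ i, ∀ [DecidableEq ι], Pi.single i (8 : ℤ) ∈ L
  four : ∀ i j, i ≠ j → ∀ [DecidableEq ι], Pi.single i (4 : ℤ) - Pi.single j 4 ∈ L
  parity : ∀ x ∈ L, ∀ i j, (2 : ℤ) ∣ x i - x j
  dot : ∀ x ∈ L, ∀ y ∈ L, (8 : ℤ) ∣ ∑ i, x i * y i
  sq : ∀ x ∈ L, (16 : ℤ) ∣ ∑ i, x i ^ 2
  min : ∀ x ∈ L, x ≠ 0 → 32 ≤ ∑ i, x i ^ 2
  shell : {x : ι → ℤ | x ∈ L ∧ ∑ i, x i ^ 2 = 32}.ncard = 196560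

/-- Frame coordinates. -/
theorem exists_frameLat (h : EvenLat B) {ι : Type*} [Fintype ι] (hι : Fintype.card ι = 24) :
    ∃ φ : (Fin 24 → ℤ) →+ (ι → ℤ), Function.Injective φ ∧
      (∀ x, ∑ i, φ x i ^ 2 = 8 * bil B x x) ∧ FrameLat φ.range := by
  classical
  obtain ⟨e₀, he8, heo, he2⟩ := exists_frame h
  let ε : ι ≃ Fin 24 := Fintype.equivFinOfCardEq hι
  let e : ι → Fin 24 → ℤ := fun i => e₀ (ε i)
  have e8 : ∀ i, bil B (e i) (e i) = 8 := fun i => he8 _
  have eo : ∀ i j, i ≠ j → bil B (e i) (e j) = 0 := fun i j hij =>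
    heo _ _ fun he => hij (ε.injective he)
  let φ : (Fin 24 → ℤ) →+ (ι → ℤ) :=
    { toFun := fun x i => bil B x (e i)
      map_zero' := funext fun i => bil_zero_left _
      map_add' := fun x y => funext fun i => bil_add_left x y _ }
  have hφ : ∀ x i, φ x i = bil B x (e i) := fun _ _ => rfl
  -- the expansion in the frame
  have hexp : ∀ x, (8 : ℤ) • x = ∑ i, φ x i • e i := by
    intro x
    by_contra hne
    let y := (8 : ℤ) • x - ∑ i, φ x i • e i
    have hy0 : y ≠ 0 := sub_ne_zero.mpr hne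
    have hye : ∀ j, bil B y (e j) = 0 := by
      intro j
      simp only [y, bil_sub_left, bil_smul_left, bil_sum_left]
      rw [Finset.sum_eq_single j (fun i _ hij => by rw [eo i j hij, mul_zero]) (by simp), e8, hφ]
      ring
    have h25 := card_orth_le h (fun o : Option ι => o.elim y e)
      (fun o => by
        rcases o with - | i
        · exact hy0
        · intro hz
          have := e8 i
          rw [show e i = 0 from hz, bil_zero_left] at this
          omega)
      (fun o o' hoo => by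
        rcases o with - | i <;> rcases o' with - | j
        · exact absurd rfl hoo
        · exact hye j
        · exact (bil_comm h _ _).trans (hye i)
        · exact eo i j fun hij => hoo (by rw [hij]))
    rw [Fintype.card_option, hι] at h25
    omega
  have hpars : ∀ x y, ∑ i, φ x i * φ y i = 8 * bil B x y := by
    intro x y
    rw [← bil_smul_left, hexp, bil_sum_left]
    refine Finset.sum_congr rfl fun i _ => ?_
    rw [bil_smul_left, hφ y i, bil_comm h (e i) y]
  have hnorm : ∀ x, ∑ i, φ x i ^ 2 = 8 * bil B x x := fun x => by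
    simp only [pow_two, hpars]
  have hinj : Function.Injective φ := by
    rw [injective_iff_map_eq_zero]
    intro x hx
    have h1 := hexp x
    simp only [hx, Pi.zero_apply, zero_smul, Finset.sum_const_zero] at h1
    funext i
    have := congrFun h1 i
    simp only [Pi.smul_apply, smul_eq_mul, Pi.zero_apply] at this ⊢
    omega
  have hcol : ∀ j, φ (e j) = Pi.single j (8 : ℤ) := by
    intro j
    funext i
    rw [hφ]
    by_cases hij : i = j
    · subst hij; rw [Pi.single_eq_same, e8]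
    · rw [Pi.single_eq_of_ne hij, eo j i (Ne.symm hij)]
  refine ⟨φ, hinj, hnorm, ⟨?_, ?_, ?_, ?_, ?_, ?_, ?_⟩⟩
  · intro i inst
    refine ⟨e i, ?_⟩
    rw [hcol]
    congr 1
    exact Subsingleton.elim _ _
  · intro i j _ inst
    obtain ⟨z, hz⟩ := he2 (ε i) (ε j)
    refine ⟨z, ?_⟩
    funext k
    have h1 : (2 : ℤ) * φ z k = φ (e i) k - φ (e j) k := by
      rw [hφ, hφ, hφ, ← bil_sub_left, ← bil_smul_left, ← hz]
    rw [hcol, hcol] at h1
    simp only [Pi.sub_apply, Pi.single_apply] at h1 ⊢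
    split_ifs at h1 ⊢ <;> omega
  · rintro _ ⟨x, rfl⟩ i j
    obtain ⟨z, hz⟩ := he2 (ε i) (ε j)
    refine ⟨bil B x z, ?_⟩
    rw [hφ, hφ, ← bil_sub_right, ← bil_smul_right, ← hz]
  · rintro _ ⟨x, rfl⟩ _ ⟨y, rfl⟩
    exact ⟨bil B x y, hpars x y⟩
  · rintro _ ⟨x, rfl⟩
    obtain ⟨k, hk⟩ : (2 : ℤ) ∣ bil B x x := h.even x
    exact ⟨k, by rw [hnorm, hk]; ring⟩
  · rintro _ ⟨x, rfl⟩ hne
    have hx : x ≠ 0 := fun hx => hne (by rw [hx, map_zero])
    have := four_le h hx
    rw [hnorm]
    omega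
  · have himg : {y : ι → ℤ | y ∈ φ.range ∧ ∑ i, y i ^ 2 = 32} =
        φ '' {x : Fin 24 → ℤ | bil B x x = 4} := by
      ext y
      simp only [Set.mem_ofPred_eq, Set.mem_image]
      constructor
      · rintro ⟨⟨x, rfl⟩, hy⟩
        rw [hnorm] at hy
        exact ⟨x, by omega, rfl⟩
      · rintro ⟨x, hx, rfl⟩
        exact ⟨⟨x, rfl⟩, by rw [hnorm, hx]; norm_num⟩
    rw [himg, Set.ncard_image_of_injective _ hinj]
    exact h.n4

end Cfsg.Agent.LeechChar
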