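import Cfsg.Agent.LeechChar.Code
import Cfsg.Agent.Leech.Basic
import Cfsg.Agent.S0375

/-!
Characterisation of the Leech lattice among even lattices of rank 24 without roots.
-/

set_option autoImplicit false

namespace Cfsg.Agent.LeechChar

open Cfsg

/-- Equivalence of the code of a frame lattice with the standard code. -/
theorem FrameLat.exists_perm {L : AddSubgroup (GolayPt → ℤ)} (h : FrameLat L) :
    ∃ σ : Equiv.Perm GolayPt, ∀ w : GolayPt → ZMod 2,
      w ∈ golayCode ↔ (fun i => w (σ i)) ∈ code L := by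
  let ε : Fin 24 ≃ GolayPt := (Fintype.equivFinOfCardEq (by simp [GolayPt])).symm
  let F : (GolayPt → ZMod 2) ≃ₗ[ZMod 2] (Fin 24 → ZMod 2) := LinearEquiv.funCongrLeft (ZMod 2) (ZMod 2) ε
  let C := (code L).map F.toLinearMap
  have hmem : ∀ v : Fin 24 → ZMod 2, v ∈ C ↔ (fun i => v (ε.symm i)) ∈ code L := by
    intro v
    constructor
    · rintro ⟨u, hu, rfl⟩
      have e : (fun i => F.toLinearMap u (ε.symm i)) = u := funext fun i => by
        simp [F, LinearEquiv.funCongrLeft_apply, LinearMap.funLeft]
      rw [e]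
      exact hu
    · intro hv
      refine ⟨_, hv, ?_⟩
      funext i
      simp [F, LinearEquiv.funCongrLeft_apply, LinearMap.funLeft]
  have hham : ∀ v : Fin 24 → ZMod 2, hammingNorm (fun i => v (ε.symm i)) = hammingNorm v := by
    intro v
    unfold hammingNorm
    refine Finset.card_equiv ε.symm fun i => ?_
    simp
  obtain ⟨e, he⟩ := Cfsg.Agent.S0375.result C
    (by rw [LinearEquiv.finrank_map_eq]; exact h.equality.1)
    (fun v hv w hw => by
      have := h.orth ((hmem v).mp hv) ((hmem w).mp hw)
      rw [← this]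
      exact Fintype.sum_equiv ε _ _ fun i => by simp)
    (fun w hw => hham w ▸ h.four_dvd ((hmem w).mp hw))
    (fun w hw => hham w ▸ h.ne_four ((hmem w).mp hw))
  exact ⟨ε.symm.trans e, fun w => (he w).trans (hmem _)⟩

/-- A frame lattice is carried onto the Leech lattice by a signed permutation. -/
theorem FrameLat.exists_iso {L : AddSubgroup (GolayPt → ℤ)} (h : FrameLat L) :
    ∃ T : (GolayPt → ℤ) ≃+ (GolayPt → ℤ), (∀ x, Cfsg.sqNorm (T x) = ∑ i, x i ^ 2) ∧
      ∀ x, T x ∈ leechLattice ↔ x ∈ L := by
  classical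
  obtain ⟨σ, hσ⟩ := h.exists_perm
  obtain ⟨-, x₀, hx₀, p, hp, hne⟩ := h.equality
  let s : GolayPt → ℤ := fun i => if i = p then (if x₀ i = 3 then -1 else 1) else x₀ i
  have hs : ∀ i, s i = 1 ∨ s i = -1 := by
    intro i
    simp only [s]
    split_ifs with h1 h2
    · exact Or.inr rfl
    · exact Or.inl rfl
    · exact hne i h1
  have hss : ∀ i, s i * s i = 1 := fun i => by rcases hs i with e | e <;> rw [e] <;> norm_num
  let T : (GolayPt → ℤ) ≃+ (GolayPt → ℤ) :=
    { toFun := fun x q => s (σ.symm q) * x (σ.symm q)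
      invFun := fun y i => s i * y (σ i)
      left_inv := fun x => funext fun i => by
        simp only [Equiv.symm_apply_apply]
        rw [← mul_assoc, hss, one_mul]
      right_inv := fun y => funext fun q => by
        simp only [Equiv.apply_symm_apply]
        rw [← mul_assoc, hss, one_mul]
      map_add' := fun x y => funext fun q => by simp [mul_add] }
  have hT : ∀ x q, T x q = s (σ.symm q) * x (σ.symm q) := fun _ _ => rfl
  have hsum : ∀ x, ∑ q, T x q = ∑ i, s i * x i := fun x =>
    Fintype.sum_equiv σ.symm _ _ fun q => rfl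
  -- the odd vector
  let u : GolayPt → ℤ := fun q => if q = σ p then -3 else 1
  have hu : T x₀ = u := by
    funext q
    rw [hT]
    simp only [u]
    obtain ⟨i, rfl⟩ := σ.surjective q
    rw [Equiv.symm_apply_apply]
    simp only [EmbeddingLike.apply_eq_iff_eq]
    simp only [s]
    split_ifs with h1 h2
    · subst h1; rw [h2]; norm_num
    · subst h1; rcases hp with e | e
      · exact absurd e h2
      · rw [e]; norm_num
    · rcases hne i h1 with e | e <;> rw [e] <;> norm_num
  have huL : u ∈ leechLattice := by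
    rw [Cfsg.Agent.Leech.mem_leechLattice_iff]
    refine ⟨1, fun q => ?_, ?_, ?_⟩
    · simp only [u, Int.ModEq]; split_ifs <;> norm_num
    · have : ∀ q, u q = 1 - (if q = σ p then 4 else 0) := fun q => by
        simp only [u]; split_ifs <;> norm_num
      rw [Finset.sum_congr rfl fun q _ => this q, Finset.sum_sub_distrib, Finset.sum_const,
        Finset.sum_ite_eq', if_pos (Finset.mem_univ _), Finset.card_univ, Cfsg.Agent.Leech.card_golayPt]
      decide
    · have : Cfsg.Agent.Leech.word u 1 = 0 := funext fun q => by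
        simp only [Cfsg.Agent.Leech.word, u, Pi.zero_apply]
        split_ifs
        · rw [ZMod.intCast_zmod_eq_zero_iff_dvd]; norm_num
        · norm_num
      rw [this]
      exact zero_mem _
  -- vectors with even coordinates
  have hsign : ∀ i (a : ℤ), ((s i * a : ℤ) : ZMod 2) = (a : ZMod 2) := fun i a => by
    have h1 : (-1 : ZMod 2) = 1 := by decide
    rcases hs i with e | e <;> rw [e] <;> simp
  have hword : ∀ d : GolayPt → ℤ,
      (Cfsg.Agent.Leech.word (T ((2 : ℤ) • d)) 0 ∈ golayCode ↔ (fun i => (d i : ZMod 2)) ∈ code L) := by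
    intro d
    rw [hσ]
    convert Iff.rfl using 2
    funext i
    simp only [Cfsg.Agent.Leech.word, hT, Equiv.symm_apply_apply, Pi.smul_apply, smul_eq_mul, sub_zero]
    rw [show s i * (2 * d i) = 2 * (s i * d i) by ring, Int.mul_ediv_cancel_left _ two_ne_zero, hsign]
  have hpar : ∀ c : GolayPt → ℤ, (∀ i, c i % 2 = 0) →
      ((8 : ℤ) ∣ ∑ i, s i * c i ↔ (8 : ℤ) ∣ ∑ i, c i * x₀ i) := by
    intro c hc
    have : ∀ i, c i * x₀ i = s i * c i + (if i = p then c p * (x₀ p - s p) else 0) := by
      intro i
      split_ifs with h1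
      · subst h1; ring
      · simp only [s, if_neg h1]; ring
    have h4 : (8 : ℤ) ∣ c p * (x₀ p - s p) := by
      obtain ⟨t, ht⟩ : ∃ t, c p = 2 * t := ⟨c p / 2, by have := hc p; omega⟩
      have h4' : (4 : ℤ) ∣ x₀ p - s p := by
        simp only [s, if_true]
        rcases hp with e | e <;> rw [e] <;> norm_num
      obtain ⟨r, hr⟩ := h4'
      exact ⟨t * r, by rw [ht, hr]; ring⟩
    rw [Finset.sum_congr rfl fun i _ => this i, Finset.sum_add_distrib, Finset.sum_ite_eq',
      if_pos (Finset.mem_univ p)]
    exact (dvd_add_left h4).symm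
  have hEven : ∀ c : GolayPt → ℤ, (∀ i, c i % 2 = 0) → (T c ∈ leechLattice ↔ c ∈ L) := by
    intro c hc
    let d : GolayPt → ℤ := fun i => c i / 2
    have hcd : c = (2 : ℤ) • d := funext fun i => by
      have := hc i
      simp only [d, Pi.smul_apply, smul_eq_mul]
      omega
    rw [Cfsg.Agent.Leech.mem_leechLattice_iff]
    constructor
    · rintro ⟨m, hm, hsm, hw⟩
      have hm2 : m % 2 = 0 := by
        have h1 := hm none
        rw [Int.ModEq, hT] at h1
        have := hc (σ.symm none)
        rcases hs (σ.symm none) with e | e <;> rw [e] at h1 <;> omega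
      have hsum8 : (8 : ℤ) ∣ ∑ i, s i * c i := by
        rw [Int.ModEq, hsum] at hsm
        omega
      have hw0 : Cfsg.Agent.Leech.word (T c) 0 ∈ golayCode := by
        have e : Cfsg.Agent.Leech.word (T c) 0 =
            Cfsg.Agent.Leech.word (T c) m + fun _ => ((m / 2 : ℤ) : ZMod 2) := funext fun q => by
          simp only [Cfsg.Agent.Leech.word, Pi.add_apply]
          rw [← Int.cast_add, ZMod.intCast_eq_intCast_iff_dvd_sub]
          have h1 := hm q
          rw [Int.ModEq] at h1
          omega
        rw [e]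
        refine Submodule.add_mem _ hw ?_
        rcases (by generalize ((m / 2 : ℤ) : ZMod 2) = a; revert a; decide :
          ((m / 2 : ℤ) : ZMod 2) = 0 ∨ ((m / 2 : ℤ) : ZMod 2) = 1) with e | e <;> rw [e]
        · exact zero_mem _
        · exact Cfsg.Agent.Leech.one_mem_golayCode
      rw [hcd] at hw0
      obtain ⟨d₀, hd₀, hd₀w⟩ := (hword d).mp hw0
      obtain ⟨k, hk⟩ : ∃ k : GolayPt → ℤ, c - (2 : ℤ) • d₀ = (4 : ℤ) • k := by
        refine ⟨fun i => (d i - d₀ i) / 2, funext fun i => ?_⟩
        have h1 := congrFun hd₀w i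
        simp only [ZMod.intCast_eq_intCast_iff_dvd_sub] at h1
        have := congrFun hcd i
        simp only [Pi.sub_apply, Pi.smul_apply, smul_eq_mul] at this ⊢
        omega
      have h8 : (8 : ℤ) ∣ ∑ i, ((2 : ℤ) • d₀) i * x₀ i := h.dot _ hd₀ _ hx₀
      have h8' := (hpar c hc).mp hsum8
      have h8k : (8 : ℤ) ∣ ∑ i, ((4 : ℤ) • k) i * x₀ i := by
        rw [← hk]
        simp only [Pi.sub_apply, sub_mul, Finset.sum_sub_distrib]
        exact dvd_sub h8' h8
      have hkeven : (2 : ℤ) ∣ ∑ i, k i := by
        have h1 : (2 : ℤ) ∣ ∑ i, k i * x₀ i := by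
          have e : ∑ i, ((4 : ℤ) • k) i * x₀ i = 4 * ∑ i, k i * x₀ i := by
            rw [Finset.mul_sum]
            exact Finset.sum_congr rfl fun i _ => by simp only [Pi.smul_apply, smul_eq_mul]; ring
          rw [e] at h8k
          omega
        have h2 : (2 : ℤ) ∣ ∑ i, (k i * x₀ i - k i) := Finset.dvd_sum fun i _ => by
          have hodd : (2 : ℤ) ∣ x₀ i - 1 := by
            rcases eq_or_ne i p with rfl | hi
            · rcases hp with e | e <;> rw [e] <;> norm_num
            · rcases hne i hi with e | e <;> rw [e] <;> norm_num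
          rw [show k i * x₀ i - k i = k i * (x₀ i - 1) by ring]
          exact Dvd.dvd.mul_left hodd _
        rw [Finset.sum_sub_distrib] at h2
        omega
      have := L.add_mem hd₀ (h.four_smul_mem hkeven)
      rwa [← hk, add_sub_cancel] at this
    · intro hcL
      refine ⟨0, fun q => ?_, ?_, ?_⟩
      · rw [Int.ModEq, hT]
        have := hc (σ.symm q)
        rcases hs (σ.symm q) with e | e <;> rw [e] <;> omega
      · rw [Int.ModEq, hsum]
        have := (hpar c hc).mpr (h.dot c hcL x₀ hx₀)
        omega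
      · rw [hcd]
        exact (hword d).mpr ⟨d, hcd ▸ hcL, rfl⟩
  refine ⟨T, fun x => ?_, fun x => ?_⟩
  · unfold Cfsg.sqNorm
    refine Fintype.sum_equiv σ.symm _ _ fun q => ?_
    rw [hT, mul_pow]
    rcases hs (σ.symm q) with e | e <;> rw [e] <;> ring
  · have hx₀odd : ∀ i, x₀ i % 2 = 1 := fun i => by
      rcases eq_or_ne i p with rfl | hi
      · rcases hp with e | e <;> rw [e] <;> norm_num
      · rcases hne i hi with e | e <;> rw [e] <;> norm_num
    by_cases hx : ∀ i, x i % 2 = 0
    · exact hEven x hx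
    push Not at hx
    obtain ⟨j, hj⟩ := hx
    constructor
    · intro hmem
      obtain ⟨m, hm, -, -⟩ := (Cfsg.Agent.Leech.mem_leechLattice_iff _).mp hmem
      have hmi : ∀ i, x i % 2 = m % 2 := fun i => by
        have h1 := hm (σ i)
        rw [Int.ModEq, hT, Equiv.symm_apply_apply] at h1
        rcases hs i with e | e <;> rw [e] at h1 <;> omega
      have hodd : ∀ i, (x - x₀) i % 2 = 0 := fun i => by
        have := hmi i
        have := hmi j
        have := hx₀odd i
        simp only [Pi.sub_apply]
        omega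
      have h1 : T (x - x₀) ∈ leechLattice := by
        rw [map_sub, hu]
        exact leechLattice.sub_mem hmem huL
      have h2 := L.add_mem ((hEven _ hodd).mp h1) hx₀
      rwa [sub_add_cancel] at h2
    · intro hmem
      have hodd : ∀ i, (x - x₀) i % 2 = 0 := fun i => by
        have := h.parity x hmem i j
        have := hx₀odd i
        simp only [Pi.sub_apply]
        omega
      have h1 := (hEven _ hodd).mpr (L.sub_mem hmem hx₀)
      rw [map_sub, hu] at h1
      have := leechLattice.add_mem h1 huL
      rwa [sub_add_cancel] at this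

/-- The characterisation of the Leech lattice. -/
theorem exists_leech_iso {B : Matrix (Fin 24) (Fin 24) ℤ} (h : EvenLat B) :
    ∃ f : (Fin 24 → ℤ) ≃+ leechLattice, ∀ x : Fin 24 → ℤ,
      Cfsg.sqNorm ((f x : leechLattice) : GolayPt → ℤ) = 8 * bil B x x := by
  obtain ⟨φ, hinj, hnorm, hL⟩ := exists_frameLat h (ι := GolayPt) Cfsg.Agent.Leech.card_golayPt
  obtain ⟨T, hTn, hTm⟩ := hL.exists_iso
  let g : (Fin 24 → ℤ) →+ leechLattice :=
    { toFun := fun x => ⟨T (φ x), (hTm _).mpr ⟨x, rfl⟩⟩
      map_zero' := Subtype.ext (by simp)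
      map_add' := fun x y => Subtype.ext (by simp) }
  have hg : Function.Bijective g := by
    refine ⟨fun x y e => hinj (T.injective (congrArg Subtype.val e)), fun y => ?_⟩
    obtain ⟨x, hx⟩ := (hTm (T.symm y.1)).mp (by rw [T.apply_symm_apply]; exact y.2)
    exact ⟨x, Subtype.ext (by show T (φ x) = y.1; rw [hx, T.apply_symm_apply])⟩
  refine ⟨AddEquiv.ofBijective g hg, fun x => ?_⟩
  show Cfsg.sqNorm (T (φ x)) = _
  rw [hTn, hnorm]

end Cfsg.Agent.LeechChar
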